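import Mathlib
import Cfsg.Agent.Lib.Helper70.Alp.S3782Defs

/-!
# S3782, package (D1) `LemLieEig` (helper86)

In the convolution Lie ring `L[ZMod p]`, the `(h(p) + 1)`-th term of the lower central series
of the sum of the eigen-subgroups of `φ` is killed by `p ^ n`, if the fixed points of `φ` are.

Proof: pass to the quotient of `L[ZMod p]` by the Lie ideal of the elements killed by `p ^ n`;
there the images of the eigen-subgroups form a graded family with trivial zero component, and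
the Higman-Kreknin-Kostrikin bound applies.
-/

set_option autoImplicit false

namespace Cfsg.Agent.Lib.Helper86.Alp

open Cfsg.Agent.Lib.Helper34

universe u

/-- the Lie ideal of the elements killed by `m` -/
def torIdeal (Λ : Type u) [LieRing Λ] (m : ℕ) : LieIdeal ℤ Λ where
  carrier := {f | m • f = 0}
  add_mem' := by
    intro a b ha hb
    show m • (a + b) = 0
    rw [smul_add, ha, hb, add_zero]
  zero_mem' := by
    show m • (0 : Λ) = 0
    exact smul_zero m
  smul_mem' := by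
    intro c x hx
    show m • (c • x) = 0
    rw [smul_comm, hx, smul_zero]
  lie_mem := by
    intro x y hy
    show m • ⁅x, y⁆ = 0
    rw [← lie_nsmul, hy, lie_zero]

theorem mem_torIdeal {Λ : Type u} [LieRing Λ] {m : ℕ} {f : Λ} :
    f ∈ torIdeal Λ m ↔ m • f = 0 := Iff.rfl

/-- the quotient map, as an additive map -/
def torMk (Λ : Type u) [LieRing Λ] (m : ℕ) : Λ →+ Λ ⧸ torIdeal Λ m :=
  ((torIdeal Λ m).toSubmodule.mkQ : Λ →ₗ[ℤ] Λ ⧸ (torIdeal Λ m).toSubmodule).toAddMonoidHom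

theorem torMk_lie {Λ : Type u} [LieRing Λ] (m : ℕ) (x y : Λ) :
    torMk Λ m ⁅x, y⁆ = ⁅torMk Λ m x, torMk Λ m y⁆ := rfl

theorem torMk_eq_zero {Λ : Type u} [LieRing Λ] (m : ℕ) (x : Λ) :
    torMk Λ m x = 0 ↔ m • x = 0 :=
  Submodule.Quotient.mk_eq_zero (torIdeal Λ m).toSubmodule

/-- a bracket-preserving additive map sends `brk` into `brk` -/
theorem map_brk_le {Λ M : Type u} [LieRing Λ] [LieRing M] (π : Λ →+ M)
    (hπ : ∀ x y, π ⁅x, y⁆ = ⁅π x, π y⁆) (A B : AddSubgroup Λ) :
    (brk A B).map π ≤ brk (A.map π) (B.map π) := by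
  rw [AddSubgroup.map_le_iff_le_comap, brk_le]
  intro a ha b hb
  rw [AddSubgroup.mem_comap, hπ]
  exact lie_mem_brk (AddSubgroup.mem_map_of_mem π ha) (AddSubgroup.mem_map_of_mem π hb)

/-- a bracket-preserving additive map sends the lower central series into the lower central
series of the image -/
theorem map_lcsA_le {Λ M : Type u} [LieRing Λ] [LieRing M] (π : Λ →+ M)
    (hπ : ∀ x y, π ⁅x, y⁆ = ⁅π x, π y⁆) (S : AddSubgroup Λ) (c : ℕ) :
    (lcsA S c).map π ≤ lcsA (S.map π) c := by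
  induction c with
  | zero => exact le_rfl
  | succ c ih =>
    rw [lcsA_succ, lcsA_succ]
    exact (map_brk_le π hπ _ _).trans (brk_mono ih le_rfl)

/-- the eigen-subgroups are compatible with the bracket (no fixed-point-freeness needed) -/
theorem eig_lie {n : ℕ} [NeZero n] {L : Type u} [LieRing L] (φ : L →+ L)
    (hφ : ∀ x y, φ ⁅x, y⁆ = ⁅φ x, φ y⁆) {i j : ZMod n} {f g : Conv n L}
    (hf : f ∈ Conv.eig φ i) (hg : g ∈ Conv.eig φ j) : ⁅f, g⁆ ∈ Conv.eig φ (i + j) := by
  intro k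
  rw [Conv.bracket_apply, map_sum, Conv.bracket_apply]
  have h1 : ∑ a : ZMod n, φ ⁅f a, g (k - a)⁆ = ∑ a : ZMod n, ⁅f (a - i), g (k - a - j)⁆ := by
    refine Finset.sum_congr rfl (fun a _ => ?_)
    rw [hφ, hf a, hg (k - a)]
  rw [h1]
  refine (Fintype.sum_equiv (Equiv.addRight i) _ _ (fun a => ?_)).symm
  simp only [Equiv.coe_addRight, add_sub_cancel_right]
  congr 2
  abel

/-- the images of the eigen-subgroups in the quotient by the `m`-torsion ideal, when the fixed
points of `φ` are killed by `m` -/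
def eigFamTor {n : ℕ} [NeZero n] {L : Type u} [LieRing L] (φ : L →+ L)
    (hφ : ∀ x y, φ ⁅x, y⁆ = ⁅φ x, φ y⁆) (m : ℕ) (hfix : ∀ x, φ x = x → m • x = 0) :
    GFam n (Conv n L ⧸ torIdeal (Conv n L) m) where
  comp i := (Conv.eig φ i).map (torMk (Conv n L) m)
  lie_mem' := by
    intro i j x y hx hy
    obtain ⟨f, hf, rfl⟩ := AddSubgroup.mem_map.mp hx
    obtain ⟨g, hg, rfl⟩ := AddSubgroup.mem_map.mp hy
    rw [← torMk_lie]
    exact AddSubgroup.mem_map_of_mem _ (eig_lie φ hφ hf hg)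
  zero' := by
    rw [eq_bot_iff]
    intro x hx
    obtain ⟨f, hf, rfl⟩ := AddSubgroup.mem_map.mp hx
    rw [AddSubgroup.mem_bot, torMk_eq_zero]
    ext k
    have h := hf k
    rw [sub_zero] at h
    exact hfix _ h

/-- **(D1)** -/
theorem lemLieEig : Cfsg.Agent.Lib.Helper70.Alp.LemLieEig.{u} := by
  intro p _ L _ φ n hφ hfix f hf
  have hkey := hkk_bound (eigFamTor (n := p) φ hφ (p ^ n) hfix)
  have htot : (eigFamTor (n := p) φ hφ (p ^ n) hfix).tot
      = (⨆ i : ZMod p, Conv.eig (n := p) φ i).map (torMk (Conv p L) (p ^ n)) := by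
    rw [AddSubgroup.map_iSup]
    rfl
  rw [htot] at hkey
  have h1 : torMk (Conv p L) (p ^ n) f ∈
      lcsA ((⨆ i : ZMod p, Conv.eig (n := p) φ i).map (torMk (Conv p L) (p ^ n)))
        (Cfsg.Agent.Lib.Helper70.Alp.hB p) :=
    map_lcsA_le (torMk (Conv p L) (p ^ n)) (torMk_lie (p ^ n)) _ _
      (AddSubgroup.mem_map_of_mem _ hf)
  have h2 : torMk (Conv p L) (p ^ n) f ∈ (⊥ : AddSubgroup _) := by
    rw [← hkey]
    exact h1
  rw [AddSubgroup.mem_bot] at h2
  exact (torMk_eq_zero (p ^ n) f).mp h2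

end Cfsg.Agent.Lib.Helper86.Alp
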